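import Cfsg.Agent.Co2Unit.StandardBase

/-! A check on the 891 vectors. -/

set_option autoImplicit false
set_option maxRecDepth 10000

namespace CfsgLib.Co2Unit

open Cfsg CfsgLib.Leech

theorem rawH_moves1 : ∀ i : Fin 445,
    rawH (ptFun ⟨446 + i.1, by omega⟩) = ptFun (gH ⟨446 + i.1, by omega⟩) := by decide +kernel

end CfsgLib.Co2Unit
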