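import Cfsg.Agent.Co2Unit.StandardBase

/-! A check on the 891 vectors. -/

set_option autoImplicit false
set_option maxRecDepth 10000

namespace CfsgLib.Co2Unit

open Cfsg CfsgLib.Leech

theorem pt_check_zero : CheckLeech (ptFun 0) := by decide +kernel

theorem rawR_moves : ∀ i : Fin 891, rawR (ptFun i) = ptFun (gR i) := by decide +kernel

theorem ptFun_separated : ∀ i : Fin 891, i ≠ 0 → ptFun i ≠ ptFun 0 := by decide +kernel

end CfsgLib.Co2Unit
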