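import Mathlib.GroupTheory.GroupAction.Quotient
import Mathlib.Data.Set.Card
import Mathlib.GroupTheory.Index
import Mathlib.Tactic.NormNum
import Cfsg.Agent.Co2Unit.DataPerm

/-! The permutation group on 891 points is large. -/

set_option autoImplicit false
set_option maxRecDepth 10000

namespace CfsgLib.Co2Unit

/-- The first generator. -/
def gR : Equiv.Perm (Fin 891) where
  toFun := permR
  invFun := permRInv
  left_inv := by decide +kernel
  right_inv := by decide +kernel

/-- The second generator. -/
def gH : Equiv.Perm (Fin 891) where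
  toFun := permH
  invFun := permHInv
  left_inv := by decide +kernel
  right_inv := by decide +kernel

/-- The group of the 891 points. -/
def planeGroup : Subgroup (Equiv.Perm (Fin 891)) := Subgroup.closure {gR, gH}

/-- A word in two elements. -/
def wordIn (a b : Equiv.Perm (Fin 891)) : List Bool → Equiv.Perm (Fin 891)
  | [] => 1
  | t :: w => (if t then b else a) * wordIn a b w

theorem wordIn_mem {H : Subgroup (Equiv.Perm (Fin 891))} {a b : Equiv.Perm (Fin 891)} (ha : a ∈ H)
    (hb : b ∈ H) : ∀ w, wordIn a b w ∈ H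
  | [] => one_mem _
  | t :: w => by
    rw [wordIn]
    refine mul_mem ?_ (wordIn_mem ha hb w)
    cases t
    · exact ha
    · exact hb

/-- First element fixing a point. -/
def sA : Equiv.Perm (Fin 891) := wordIn gR gH wordA

/-- Second element fixing a point. -/
def sB : Equiv.Perm (Fin 891) := wordIn gR gH wordB

/-- First element fixing two points. -/
def sC : Equiv.Perm (Fin 891) := wordIn sA sB wordC

/-- Second element fixing two points. -/
def sD : Equiv.Perm (Fin 891) := wordIn sA sB wordD

theorem tree_ok : ∀ i : Fin 891, i ≠ 0 → (treeStep i).1 < i ∧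
    (if (treeStep i).2 then gH else gR) (treeStep i).1 = i := by decide +kernel

theorem orb_tree_ok : ∀ i : Fin 512, i ≠ 0 → (orbStep i).1 < i ∧
    (if (orbStep i).2 then sB else sA) (orbPt (orbStep i).1) = orbPt i := by decide +kernel

theorem pair_tree_ok : ∀ i : Fin 280, i ≠ 0 → (pairStep i).1 < i ∧
    (if (pairStep i).2 then sD else sC) (pairPt (pairStep i).1) = pairPt i := by decide +kernel

theorem word_facts : sA 0 = 0 ∧ sB 0 = 0 ∧ sC (orbPt 0) = orbPt 0 ∧ sD (orbPt 0) = orbPt 0 := by
  decide +kernel

theorem orbPos_ok : ∀ i : Fin 512, orbPos (orbPt i) = i := by decide +kernel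

theorem orbPt_injective : Function.Injective orbPt := Function.LeftInverse.injective orbPos_ok

theorem pairPos_ok : ∀ i : Fin 280, pairPos (pairPt i) = i := by decide +kernel

theorem pairPt_injective : Function.Injective pairPt := Function.LeftInverse.injective pairPos_ok

theorem tree_bound {n : ℕ} [NeZero n] (H : Subgroup (Equiv.Perm (Fin 891)))
    (a b : Equiv.Perm (Fin 891)) (ha : a ∈ H) (hb : b ∈ H) (pt : Fin n → Fin 891)
    (step : Fin n → Fin n × Bool) (hpt : Function.Injective pt)
    (hstep : ∀ i, i ≠ 0 → (step i).1 < i ∧ (if (step i).2 then b else a) (pt (step i).1) = pt i) :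
    n * Nat.card ↥(H ⊓ MulAction.stabilizer (Equiv.Perm (Fin 891)) (pt 0)) ≤ Nat.card H := by
  have hmem : ∀ i, ∃ g : H, g • pt 0 = pt i := by
    intro i
    induction i using WellFoundedLT.induction with
    | _ i ih =>
      by_cases h0 : i = 0
      · exact ⟨1, by rw [h0, one_smul]⟩
      · obtain ⟨hlt, he⟩ := hstep i h0
        obtain ⟨g, hg⟩ := ih _ hlt
        have hm : (if (step i).2 then b else a) ∈ H := by
          split_ifs
          · exact hb
          · exact ha
        exact ⟨⟨_, hm⟩ * g, by rw [mul_smul, hg]; exact he⟩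
  have horb : n ≤ (MulAction.orbit H (pt 0)).ncard := by
    have h : (Set.range pt).ncard = n := by
      rw [Set.ncard_range_of_injective hpt, Nat.card_eq_fintype_card, Fintype.card_fin]
    refine h.symm.le.trans (Set.ncard_le_ncard ?_ (Set.toFinite _))
    rintro _ ⟨i, rfl⟩
    exact hmem i
  have h := Subgroup.index_mul_card (MulAction.stabilizer H (pt 0))
  rw [MulAction.index_stabilizer] at h
  rw [← h]
  refine Nat.mul_le_mul horb (le_of_eq ?_)
  exact Nat.card_congr
    { toFun := fun g => ⟨⟨g.1, g.2.1⟩, g.2.2⟩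
      invFun := fun g => ⟨g.1.1, g.1.2, g.2⟩
      left_inv := fun _ => rfl
      right_inv := fun _ => rfl }

theorem exists_to (i : Fin 891) : ∃ g ∈ planeGroup, g 0 = i := by
  induction i using WellFoundedLT.induction with
  | _ i ih =>
    by_cases h0 : i = 0
    · exact ⟨1, one_mem _, h0.symm⟩
    · obtain ⟨hlt, he⟩ := tree_ok i h0
      obtain ⟨g, hg, hg0⟩ := ih _ hlt
      refine ⟨(if (treeStep i).2 then gH else gR) * g, mul_mem ?_ hg, ?_⟩
      · split_ifs <;> exact Subgroup.subset_closure (by simp)
      · rw [Equiv.Perm.mul_apply, hg0, he]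

theorem planeGroup_large : 127733760 ≤ Nat.card planeGroup := by
  obtain ⟨a0, b0, c1, d1⟩ := word_facts
  have hR : gR ∈ planeGroup := Subgroup.subset_closure (by simp)
  have hH : gH ∈ planeGroup := Subgroup.subset_closure (by simp)
  set K0 := planeGroup ⊓ MulAction.stabilizer (Equiv.Perm (Fin 891)) (0 : Fin 891)
  set K1 := K0 ⊓ MulAction.stabilizer (Equiv.Perm (Fin 891)) (orbPt 0)
  have hA : sA ∈ K0 := ⟨wordIn_mem hR hH _, a0⟩
  have hB : sB ∈ K0 := ⟨wordIn_mem hR hH _, b0⟩
  have hC : sC ∈ K1 := ⟨wordIn_mem hA hB _, c1⟩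
  have hD : sD ∈ K1 := ⟨wordIn_mem hA hB _, d1⟩
  have e0 : 891 * Nat.card K0 ≤ Nat.card planeGroup :=
    tree_bound planeGroup gR gH hR hH id treeStep Function.injective_id tree_ok
  have e1 : 512 * Nat.card K1 ≤ Nat.card K0 :=
    tree_bound K0 sA sB hA hB orbPt orbStep orbPt_injective orb_tree_ok
  have e2 := tree_bound K1 sC sD hC hD pairPt pairStep pairPt_injective pair_tree_ok
  have e3 : 1 ≤ Nat.card ↥(K1 ⊓ MulAction.stabilizer (Equiv.Perm (Fin 891)) (pairPt 0)) :=
    Nat.card_pos
  have : 280 ≤ Nat.card K1 := le_trans (by omega) e2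
  omega

end CfsgLib.Co2Unit
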