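import Mathlib
import Cfsg.Agent.Co2Unit.Perm
import Cfsg.Agent.Co2Unit.DataLeech
import Cfsg.Agent.Co2Unit.MovesR
import Cfsg.Agent.Co2Unit.MovesH0
import Cfsg.Agent.Co2Unit.MovesH1
import Cfsg.Agent.LeechTriples.Perm
import Cfsg.Agent.Leech.McLSimple

/-! The standard pair: two elements moving the 891 vectors as prescribed, and the size of the
stabiliser. -/

set_option autoImplicit false
set_option linter.style.haveILetI false
set_option maxRecDepth 10000

namespace CfsgLib.Co2Unit

open Cfsg CfsgLib.Leech CfsgLib.LeechTriples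
open scoped Pointwise

theorem rawH_moves (i : Fin 891) : rawH (ptFun i) = ptFun (gH i) := by
  by_cases h : (i : ℕ) < 446
  · have := rawH_moves0 ⟨i, h⟩
    simpa using this
  · have := rawH_moves1 ⟨(i : ℕ) - 446, by omega⟩
    have e : (⟨446 + ((i : ℕ) - 446), by omega⟩ : Fin 891) = i := Fin.ext (by simp only; omega)
    simpa [e] using this

theorem ptFun_mem (i : Fin 891) : ptFun i ∈ leechLattice := by
  induction i using WellFoundedLT.induction with
  | _ i ih =>
    by_cases h0 : i = 0
    · exact h0 ▸ mem_leech_of_check pt_check_zero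
    · obtain ⟨hlt, he⟩ := tree_ok i h0
      cases h : (treeStep i).2 <;> rw [h] at he
      · rw [← he, show (if false then gH else gR) = gR from rfl, ← rawR_moves]
        exact (eR • (⟨_, ih _ hlt⟩ : leechLattice)).2
      · rw [← he, show (if true then gH else gR) = gH from rfl, ← rawH_moves]
        exact (eH • (⟨_, ih _ hlt⟩ : leechLattice)).2

/-- One of the 891 vectors. -/
def planePt (i : Fin 891) : leechLattice := ⟨ptFun i, ptFun_mem i⟩

theorem planePt_separated : ∀ i : Fin 891, i ≠ 0 →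
    (planePt i : GolayPt → ℤ) ≠ (planePt 0 : GolayPt → ℤ) := ptFun_separated

theorem eR_moves (i : Fin 891) :
    ((eR • planePt i : leechLattice) : GolayPt → ℤ) = (planePt (gR i) : GolayPt → ℤ) :=
  (eR_coe _).trans (rawR_moves i)

theorem eH_moves (i : Fin 891) :
    ((eH • planePt i : leechLattice) : GolayPt → ℤ) = (planePt (gH i) : GolayPt → ℤ) :=
  (eH_coe _).trans (rawH_moves i)

theorem gen_fix : ((eR • v0 : leechLattice) : GolayPt → ℤ) = (v0 : GolayPt → ℤ) ∧
    ((eR • w0 : leechLattice) : GolayPt → ℤ) = (w0 : GolayPt → ℤ) ∧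
    ((eH • v0 : leechLattice) : GolayPt → ℤ) = (v0 : GolayPt → ℤ) ∧
    ((eH • w0 : leechLattice) : GolayPt → ℤ) = (w0 : GolayPt → ℤ) := by
  decide +kernel

/-- Any configuration is an image of the standard one. -/
theorem exists_pair_neg16 {v w : leechLattice} (hv : nrm v = 32) (hw : nrm w = 32)
    (hd : ip v w = -16) : ∃ g : Co0, g • v = v0 ∧ g • w = w0 := by
  obtain ⟨g, g1, g2⟩ := exists_pair16_base v (-w) hv (by rw [nrm_neg, hw])
    (by rw [ip_neg_right, hd]; norm_num)
  exact ⟨g, g1, by rw [co0_map_neg, neg_eq_iff_eq_neg] at g2; exact g2⟩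

theorem card_pairStab_neg16 {v w : leechLattice} (hv : nrm v = 32) (hw : nrm w = 32)
    (hd : ip v w = -16) : Nat.card (pairStab v w) = 9196830720 := by
  have h := card_pairStab_mul (fun x => x ∈ nbrs v (-16)) (v := v) (w := w) fun x => by
    constructor
    · intro hx
      rw [mem_nbrs] at hx
      obtain ⟨g, g1, g2⟩ := exists_pair_neg16 hv hw hd
      obtain ⟨k, k1, k2⟩ := exists_pair_neg16 hv hx.1 hx.2
      exact ⟨k⁻¹ * g, by rw [mul_smul, g1, ← k1, inv_smul_smul],
        by rw [mul_smul, g2, ← k2, inv_smul_smul]⟩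
    · rintro ⟨g, hg, rfl⟩
      refine mem_nbrs.2 ⟨by rw [nrm_smul, hw], ?_⟩
      have := ip_smul g v w
      rw [hg, hd] at this
      exact this
  change _ * (↑(nbrs v (-16)) : Set leechLattice).ncard = _ at h
  rw [Set.ncard_coe_finset, card_nbrs_eq (v := v) hv, census.1, card_stab_32 hv] at h
  omega

theorem pairStab_equiv (hΓ : Nat.card planeGroup = 9196830720) :
    Nonempty (pairStab v0 w0 ≃* planeGroup) := by
  haveI : Finite Co0 := finite_co0
  obtain ⟨f1, f2, f3⟩ := base_facts
  obtain ⟨a1, a2, b1, b2⟩ := gen_fix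
  let T : Submonoid (Co0 × Equiv.Perm (Fin 891)) :=
    { carrier := {q | ∀ i, q.1 • planePt i = planePt (q.2 i)}
      one_mem' := fun i => one_smul _ _
      mul_mem' := fun {a b} ha hb i => by
        show (a.1 * b.1) • planePt i = planePt (a.2 (b.2 i))
        rw [mul_smul, hb, ha] }
  let TG : Subgroup (Co0 × Equiv.Perm (Fin 891)) :=
    { T with
      inv_mem' := fun {g} hg => by
        rw [inv_eq_of_mul_eq_one_right (b := g ^ (orderOf g - 1))]
        · exact T.pow_mem hg _
        · rw [← pow_succ', Nat.sub_add_cancel (orderOf_pos g), pow_orderOf_eq_one] }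
  let Q : Subgroup (Co0 × Equiv.Perm (Fin 891)) := Subgroup.closure {(eR, gR), (eH, gH)}
  have hQT : Q ≤ TG := (Subgroup.closure_le _).2 (by
    rintro _ (rfl | rfl)
    · exact fun i => Subtype.ext (eR_moves i)
    · exact fun i => Subtype.ext (eH_moves i))
  have hQK : Q.map (MonoidHom.fst Co0 _) ≤ pairStab v0 w0 := by
    rw [MonoidHom.map_closure, Subgroup.closure_le]
    rintro _ ⟨q, (rfl | rfl), rfl⟩
    · exact ⟨Subtype.ext a1, Subtype.ext a2⟩
    · exact ⟨Subtype.ext b1, Subtype.ext b2⟩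
  have hQΓ : Q.map (MonoidHom.snd Co0 _) = planeGroup := by
    rw [MonoidHom.map_closure, Set.image_pair]
    rfl
  have hinj : Function.Injective planePt := by
    intro j k hjk
    obtain ⟨p, hp, hpj⟩ := exists_to j
    rw [← hQΓ] at hp
    obtain ⟨⟨g, p'⟩, hg, rfl⟩ := hp
    have hgi := TG.inv_mem (hQT hg)
    have e1 := hgi j
    have e2 := hgi k
    simp only [Prod.fst_inv, Prod.snd_inv] at e1 e2
    simp only [MonoidHom.coe_snd] at hpj
    rw [show (p'⁻¹ : Equiv.Perm (Fin 891)) j = 0 by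
      rw [Equiv.Perm.inv_eq_iff_eq]; exact hpj.symm] at e1
    rw [← hjk, e1] at e2
    by_contra hne
    refine planePt_separated ((p'⁻¹ : Equiv.Perm (Fin 891)) k) ?_
      (congrArg Subtype.val e2.symm)
    intro h
    rw [Equiv.Perm.inv_eq_iff_eq] at h
    exact hne (hpj.symm.trans h.symm)
  let fQ : Q →* pairStab v0 w0 :=
    ((MonoidHom.fst Co0 _).comp Q.subtype).codRestrict _ fun q => hQK ⟨q.1, q.2, rfl⟩
  have hf : Function.Injective fQ := fun a b h => by
    have h1 : a.1.1 = b.1.1 := congrArg Subtype.val h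
    refine Subtype.ext (Prod.ext h1 (Equiv.ext fun i => hinj ?_))
    rw [← hQT a.2 i, ← hQT b.2 i, h1]
  haveI : Finite Q := Finite.of_injective fQ hf
  let sQ : Q →* planeGroup :=
    ((MonoidHom.snd Co0 _).comp Q.subtype).codRestrict _ fun q => hQΓ.le ⟨q.1, q.2, rfl⟩
  have hs : Function.Surjective sQ := fun p => by
    obtain ⟨q, hq, e⟩ := hQΓ.ge p.2
    exact ⟨⟨q, hq⟩, Subtype.ext e⟩
  have hK : Nat.card (pairStab v0 w0) = 9196830720 := card_pairStab_neg16 f1 f2 f3
  have c1 : Nat.card Q ≤ 9196830720 := hK ▸ Nat.card_le_card_of_injective fQ hf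
  have c2 : 9196830720 ≤ Nat.card Q := hΓ ▸ Nat.card_le_card_of_surjective sQ hs
  have hfb : Function.Bijective fQ :=
    (Nat.bijective_iff_injective_and_card _).2 ⟨hf, by omega⟩
  have hsb : Function.Bijective sQ :=
    (Nat.bijective_iff_surjective_and_card _).2 ⟨hs, by omega⟩
  exact ⟨(MulEquiv.ofBijective _ hfb).symm.trans (MulEquiv.ofBijective _ hsb)⟩

end CfsgLib.Co2Unit
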