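import Cfsg.Agent.Co2Unit.PlaneArith

/-! The certificate of a generator on the 891 planes. -/

set_option autoImplicit false
set_option maxRecDepth 10000

namespace CfsgLib.Co2Unit

theorem checkH_ok : ∀ j : Fin 891,
    certCheck 1086504504306125838770 (basisCode j) (basisCode (gH j)) (certHCode j) = true := by decide +kernel

theorem certH_ok : ∀ j : Fin 891, matH * planeBasis j = planeBasis (gH j) * (certH j).1 ∧
    (certH j).1 * (certH j).2 = 1 := fun j => certCheck_sound (checkH_ok j)

end CfsgLib.Co2Unit
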