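import Cfsg.Agent.Co2Unit.PlaneArith

/-! The certificate of a generator on the 891 planes. -/

set_option autoImplicit false
set_option maxRecDepth 10000

namespace CfsgLib.Co2Unit

theorem checkR_ok : ∀ j : Fin 891,
    certCheck 909606125069677311041 (basisCode j) (basisCode (gR j)) (certRCode j) = true := by decide +kernel

theorem certR_ok : ∀ j : Fin 891, matR * planeBasis j = planeBasis (gR j) * (certR j).1 ∧
    (certR j).1 * (certR j).2 = 1 := fun j => certCheck_sound (checkR_ok j)

end CfsgLib.Co2Unit
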