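import Mathlib.LinearAlgebra.Matrix.Determinant.Basic
import Mathlib.Tactic.FinCases
import Cfsg.Agent.Co2Unit.DataPlanes
import Cfsg.Agent.Co2Unit.Perm
import Cfsg.Agent.Co2Unit.PlaneR
import Cfsg.Agent.Co2Unit.PlaneH

/-! The matrix identities behind the action on 891 planes. -/

set_option autoImplicit false
set_option maxRecDepth 10000

namespace CfsgLib.Co2Unit

theorem matR_unitary : ∀ i j : Fin 6,
    ∑ k, matR k i * (matR k j * matR k j) = if i = j then 1 else 0 := by
  decide +kernel

theorem matH_unitary : ∀ i j : Fin 6,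
    ∑ k, matH k i * (matH k j * matH k j) = if i = j then 1 else 0 := by
  decide +kernel

theorem matR_det : matR.det = 1 := by decide +kernel

theorem matH_det : matH.det = 1 := by decide +kernel

theorem separated_ok : ∀ j : Fin 891, j ≠ 0 →
    Matrix.vecMul (sepVec j) (planeBasis 0) = 0 ∧ Matrix.vecMul (sepVec j) (planeBasis j) ≠ 0 := by
  decide +kernel

end CfsgLib.Co2Unit
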