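import Mathlib
import Cfsg.Agent.Co2Unit.PlaneCheck
import Cfsg.Agent.MinIndexPSU.Weak
import Cfsg.Agent.Classical.Unitary.Simple
import Cfsg.Agent.Classical.Unitary.Center

/-! `PSU₆(2)` is the group of the 891 points: it permutes the totally isotropic planes. -/

set_option autoImplicit false
set_option linter.style.haveILetI false

namespace CfsgLib.Co2Unit

open Cfsg CfsgLib.Unitary
open scoped Classical

variable {F : Type*} [Field F] [Fintype F]

theorem card_four (hF : Fintype.card F = 4) : Fintype.card F = 2 ^ 2 := by rw [hF]; norm_num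

theorem exists_inv : ∀ a b : ZMod 2, (a, b) ≠ (0, 0) → ∃ c d : ZMod 2,
    (⟨a, b⟩ : R4) * ⟨c, d⟩ = 1 := by decide +kernel

/-- The embedding of the computable field into `F`. -/
theorem exists_embedding (hF : Fintype.card F = 4) :
    ∃ φ : R4 →+* F, Function.Injective φ := by
  haveI : Fact (Nat.Prime 2) := ⟨Nat.prime_two⟩
  obtain ⟨p, hc⟩ := CharP.exists F
  obtain ⟨e, hp, he⟩ := FiniteField.card F p
  have hp2 : p = 2 := (Nat.prime_dvd_prime_iff_eq hp Nat.prime_two).mp
    (hp.dvd_of_dvd_pow (n := 2) (by rw [← card_four hF, he]; exact dvd_pow_self p e.ne_zero))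
  haveI : CharP F 2 := hp2 ▸ hc
  letI : Algebra (ZMod 2) F := ZMod.algebra F 2
  obtain ⟨s, hs0, hs1⟩ : ∃ s : F, s ≠ 0 ∧ s ≠ 1 := by
    by_contra h
    push_neg at h
    have hsub : (Finset.univ : Finset F) ⊆ {0, 1} := fun x _ => by
      by_cases hx : x = 0
      · simp [hx]
      · simp [h x hx]
    have hle := (Finset.card_le_card hsub).trans Finset.card_le_two
    rw [Finset.card_univ, hF] at hle
    omega
  have h3 : s ^ 3 = 1 := by
    have h := FiniteField.pow_card_sub_one_eq_one s hs0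
    rwa [hF] at h
  have hq : s * s + s + 1 = 0 := by
    have h : (s - 1) * (s * s + s + 1) = 0 := by linear_combination h3
    exact (mul_eq_zero.1 h).resolve_left (sub_ne_zero.2 hs1)
  have hs' : s * s = (1 : ZMod 2) • (1 : F) + (1 : ZMod 2) • s := by
    rw [one_smul, one_smul]
    linear_combination hq - CharTwo.two_eq_zero (R := F) * (1 + s)
  let φ := (QuadraticAlgebra.lift ⟨s, hs'⟩).toRingHom
  refine ⟨φ, (injective_iff_map_eq_zero φ).mpr fun x hx => ?_⟩
  obtain ⟨a, b⟩ := x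
  by_contra hne
  obtain ⟨c, d, hcd⟩ := exists_inv a b (by
    intro h
    rw [Prod.mk.injEq] at h
    exact hne (by rw [h.1, h.2]; rfl))
  have := congrArg φ hcd
  rw [map_mul, hx, zero_mul, map_one] at this
  exact zero_ne_one this

/-- The matrix of an element of `SU`. -/
def matF (g : ↥(SU 6 F 2)) : Matrix (Fin 6) (Fin 6) F :=
  ((g : Matrix.SpecialLinearGroup (Fin 6) F) : Matrix (Fin 6) (Fin 6) F)

theorem matF_sv (g : ↥(SU 6 F 2)) (x : Fin 6 → F) : sv g x = (matF g).mulVec x := rfl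

theorem exists_SU_map (hF : Fintype.card F = 4) (φ : R4 →+* F) (M : M4) (hdet : M.det = 1)
    (hu : ∀ i j : Fin 6,
      ∑ k, M k i * (M k j * M k j) = if i = j then 1 else 0) :
    ∃ g : ↥(SU 6 F 2), matF g = φ.mapMatrix M := by
  have hd : (φ.mapMatrix M).det = 1 := by rw [← RingHom.map_det, hdet, map_one]
  refine ⟨⟨⟨φ.mapMatrix M, hd⟩, mem_SU.2 ((preserves_iff_orthonorm_cols (card_four hF) _).2 ?_)⟩,
    rfl⟩
  intro i j
  have h := congrArg φ (hu i j)
  rw [map_sum, apply_ite φ, map_one, map_zero] at h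
  rw [← h]
  refine Finset.sum_congr rfl fun k _ => ?_
  simp only [cols, RingHom.mapMatrix_apply, Matrix.map_apply, map_mul]
  ring

/-- The images of a set of vectors. -/
def actSet (g : ↥(SU 6 F 2)) (S : Set (Fin 6 → F)) : Set (Fin 6 → F) := sv g '' S

theorem actSet_mul (g h : ↥(SU 6 F 2)) (S : Set (Fin 6 → F)) :
    actSet (g * h) S = actSet g (actSet h S) := by
  simp only [actSet, Set.image_image, sv_mul]

theorem actSet_one (S : Set (Fin 6 → F)) : actSet 1 S = S := by
  simp only [actSet, sv_one, Set.image_id']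

set_option maxHeartbeats 2000000 in
theorem psu_planes (hF : Fintype.card F = 4) :
    Nat.card planeGroup = 9196830720 ∧ Nonempty (PSU 6 F 2 ≃* planeGroup) := by
  have hF' := card_four hF
  obtain ⟨φ, hφ⟩ := exists_embedding hF
  obtain ⟨MR, hMR⟩ := exists_SU_map hF φ matR matR_det matR_unitary
  obtain ⟨MH, hMH⟩ := exists_SU_map hF φ matH matH_det matH_unitary
  let P : Fin 891 → Matrix (Fin 6) (Fin 3) F := fun j => (planeBasis j).map φ
  let S : Fin 891 → Set (Fin 6 → F) := fun j => Set.range (P j).mulVec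
  -- a matrix moves the lines as prescribed
  have hstep : ∀ (g : ↥(SU 6 F 2)) (M : M4) (p : Equiv.Perm (Fin 891))
      (cert : Fin 891 → C4 × C4), matF g = φ.mapMatrix M →
      (∀ j, M * planeBasis j = planeBasis (p j) * (cert j).1 ∧ (cert j).1 * (cert j).2 = 1) →
      ∀ j, actSet g (S j) = S (p j) := by
    intro g M p cert hg hc j
    obtain ⟨h1, h2⟩ := hc j
    have e1 : matF g * P j = P (p j) * (cert j).1.map φ := by
      rw [hg, RingHom.mapMatrix_apply]
      show M.map φ * (planeBasis j).map φ = (planeBasis (p j)).map φ * (cert j).1.map φ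
      rw [← Matrix.map_mul, ← Matrix.map_mul, h1]
    have e2 : (cert j).1.map φ * (cert j).2.map φ = 1 := by
      rw [← Matrix.map_mul, h2, Matrix.map_one φ (map_zero φ) (map_one φ)]
    ext x
    constructor
    · rintro ⟨_, ⟨w, rfl⟩, rfl⟩
      exact ⟨((cert j).1.map φ).mulVec w, by
        rw [Matrix.mulVec_mulVec, matF_sv, Matrix.mulVec_mulVec, e1]⟩
    · rintro ⟨w, rfl⟩
      exact ⟨_, ⟨((cert j).2.map φ).mulVec w, rfl⟩, by
        rw [matF_sv, Matrix.mulVec_mulVec, e1, Matrix.mulVec_mulVec, Matrix.mul_assoc, e2,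
          Matrix.mul_one]⟩
  -- elements permuting the lines
  let T : Submonoid (↥(SU 6 F 2) × Equiv.Perm (Fin 891)) :=
    { carrier := {q | ∀ j, actSet q.1 (S j) = S (q.2 j)}
      one_mem' := fun j => actSet_one _
      mul_mem' := fun {a b} ha hb j => by
        show actSet (a.1 * b.1) (S j) = S (a.2 (b.2 j))
        rw [actSet_mul, hb, ha] }
  let TG : Subgroup (↥(SU 6 F 2) × Equiv.Perm (Fin 891)) :=
    { T with
      inv_mem' := fun {g} hg => by
        rw [inv_eq_of_mul_eq_one_right (b := g ^ (orderOf g - 1))]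
        · exact T.pow_mem hg _
        · rw [← pow_succ', Nat.sub_add_cancel (orderOf_pos g), pow_orderOf_eq_one] }
  have hTR : (MR, gR) ∈ TG := hstep MR matR gR certR hMR certR_ok
  have hTH : (MH, gH) ∈ TG := hstep MH matH gH certH hMH certH_ok
  have hpair : ∀ p ∈ planeGroup, ∃ g, (g, p) ∈ TG := by
    intro p hp
    have h : planeGroup ≤ TG.map (MonoidHom.snd ↥(SU 6 F 2) (Equiv.Perm (Fin 891))) :=
      (Subgroup.closure_le _).2 (by
        rintro _ (rfl | rfl)
        · exact ⟨_, hTR, rfl⟩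
        · exact ⟨_, hTH, rfl⟩)
    obtain ⟨⟨g, p'⟩, hg, rfl⟩ := h hp
    exact ⟨g, hg⟩
  have hsep : ∀ j, S j = S 0 → j = 0 := by
    intro j hj
    by_contra hne
    obtain ⟨h0, h1⟩ := separated_ok j hne
    obtain ⟨a, ha⟩ := Function.ne_iff.1 h1
    have hx : (P j).mulVec (Pi.single a 1) ∈ S 0 := hj ▸ ⟨_, rfl⟩
    obtain ⟨w, hw⟩ := hx
    refine ha (hφ ?_)
    have hv : ∀ (k : Fin 891) (v : Fin 3 → F),
        (φ ∘ sepVec j) ⬝ᵥ (P k).mulVec v = (φ ∘ Matrix.vecMul (sepVec j) (planeBasis k)) ⬝ᵥ v := by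
      intro k v
      rw [Matrix.dotProduct_mulVec]
      congr 1
      funext b
      simp [Matrix.vecMul, dotProduct, P, map_sum]
    have e := congrArg (fun x => (φ ∘ sepVec j) ⬝ᵥ x) hw
    simp only [hv, h0] at e
    rw [dotProduct_single, mul_one] at e
    rw [show (φ ∘ (0 : Fin 3 → R4)) = 0 by funext b; simp, zero_dotProduct] at e
    rw [Pi.zero_apply, map_zero]
    exact e.symm
  have hSinj : Function.Injective S := by
    intro j k hjk
    obtain ⟨p, hp, hpj⟩ := exists_to j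
    obtain ⟨g, hg⟩ := hpair p hp
    have hgi := TG.inv_mem hg
    have h1 : actSet g⁻¹ (S j) = S 0 := by
      have := hgi j
      simp only [Prod.fst_inv, Prod.snd_inv] at this
      rwa [show (p⁻¹ : Equiv.Perm (Fin 891)) j = 0 by
        rw [Equiv.Perm.inv_eq_iff_eq]; exact hpj.symm] at this
    have h2 : actSet g⁻¹ (S k) = S ((p⁻¹ : Equiv.Perm (Fin 891)) k) := hgi k
    rw [← hjk, h1] at h2
    have h3 := hsep _ h2.symm
    rw [Equiv.Perm.inv_eq_iff_eq] at h3
    rw [h3, hpj]
  have huniq : ∀ {g p p'}, (g, p) ∈ TG → (g, p') ∈ TG → p = p' := fun {g p p'} h h' =>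
    Equiv.ext fun j => hSinj ((h j).symm.trans (h' j))
  have hcenter : ∀ z ∈ Subgroup.center ↥(SU 6 F 2), (z, (1 : Equiv.Perm (Fin 891))) ∈ TG := by
    intro z hz j
    obtain ⟨a, ha⟩ := (mem_center_SU_iff hF' (by norm_num) z).1 hz
    have ha0 : a ≠ 0 := by
      intro h0
      have hdet := (z : Matrix.SpecialLinearGroup (Fin 6) F).2
      rw [ha, h0, map_zero, Matrix.det_zero] at hdet
      exact zero_ne_one hdet
    have hzx : ∀ x, sv z x = a • x := fun x => by
      rw [matF_sv, show matF z = Matrix.scalar (Fin 6) a from ha, Matrix.scalar_apply]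
      funext k
      simp [Matrix.mulVec_diagonal]
    ext x
    constructor
    · rintro ⟨_, ⟨w, rfl⟩, rfl⟩
      exact ⟨a • w, by rw [hzx, Matrix.mulVec_smul]; rfl⟩
    · rintro ⟨w, rfl⟩
      refine ⟨_, ⟨a⁻¹ • w, rfl⟩, ?_⟩
      rw [hzx, Matrix.mulVec_smul, smul_smul, mul_inv_cancel₀ ha0, one_smul]
      rfl
  let W : Subgroup ↥(SU 6 F 2) := Subgroup.closure {MR, MH} ⊔ Subgroup.center ↥(SU 6 F 2)
  let TW : Subgroup ↥(SU 6 F 2) := TG.map (MonoidHom.fst _ _)
  have hWT : W ≤ TW := sup_le ((Subgroup.closure_le _).2 (by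
      rintro _ (rfl | rfl)
      · exact ⟨_, hTR, rfl⟩
      · exact ⟨_, hTH, rfl⟩)) fun z hz => ⟨_, hcenter z hz, rfl⟩
  choose θf hθf using fun g : TW => (show ∃ p, (g.1, p) ∈ TG by
    obtain ⟨⟨g', p⟩, h, e⟩ := g.2
    exact ⟨p, by rw [← show g' = g.1 from e]; exact h⟩)
  let θW : W →* Equiv.Perm (Fin 891) :=
    { toFun := fun g => θf ⟨g.1, hWT g.2⟩
      map_one' := huniq (hθf ⟨1, hWT (one_mem _)⟩) TG.one_mem
      map_mul' := fun g h => huniq (hθf ⟨g.1 * h.1, hWT (mul_mem g.2 h.2)⟩)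
        (TG.mul_mem (hθf ⟨g.1, hWT g.2⟩) (hθf ⟨h.1, hWT h.2⟩)) }
  have hθ : ∀ (g : W) (p : Equiv.Perm (Fin 891)), (g.1, p) ∈ TG → θW g = p := fun g p h =>
    huniq (hθf ⟨g.1, hWT g.2⟩) h
  have hRW : MR ∈ W := Subgroup.mem_sup_left (Subgroup.subset_closure (by simp))
  have hHW : MH ∈ W := Subgroup.mem_sup_left (Subgroup.subset_closure (by simp))
  have hZW : Subgroup.center ↥(SU 6 F 2) ≤ W := le_sup_right
  have hker : (Subgroup.center ↥(SU 6 F 2)).subgroupOf W ≤ θW.ker := fun z hz =>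
    hθ z 1 (hcenter z.1 (Subgroup.mem_subgroupOf.1 hz))
  have hrange : planeGroup ≤ θW.range := (Subgroup.closure_le _).2 (by
    rintro _ (rfl | rfl)
    · exact ⟨⟨MR, hRW⟩, hθ _ _ hTR⟩
    · exact ⟨⟨MH, hHW⟩, hθ _ _ hTH⟩)
  have hZ3 : Nat.card (Subgroup.center ↥(SU 6 F 2)) = 3 := by
    rw [card_center_SU hF' (by norm_num)]; norm_num
  have hcardSU : Nat.card ↥(SU 6 F 2) = 27590492160 := by
    have h := card_SU hF' 6 (by norm_num)
    have he : ∏ i ∈ Finset.range 6, (if Even i then 2 ^ (i + 1) + 1 else 2 ^ (i + 1) - 1 : ℕ) =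
        3 * 3 * 9 * 15 * 33 * 63 := by
      decide +kernel
    rw [he, show 2 ^ (6 * (6 - 1) / 2) = 32768 by decide +kernel] at h
    omega
  have hWtop : W = ⊤ := by
    by_contra hne
    have hidx : 96 ≤ W.index := CfsgLib.MinIndexPSU.index_ge_weak hF' (by norm_num) (by norm_num) W hne
    have h1 : Nat.card W * W.index = 27590492160 := by
      rw [Subgroup.card_mul_index, hcardSU]
    have h2 : Nat.card θW.ker * Nat.card θW.range = Nat.card W := by
      rw [← Subgroup.index_ker, Subgroup.card_mul_index]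
    have h3 : 3 ≤ Nat.card θW.ker := by
      refine le_trans (le_of_eq ?_) (Subgroup.card_le_of_le hker)
      exact hZ3.symm.trans (Nat.card_congr (Subgroup.subgroupOfEquivOfLe hZW).toEquiv).symm
    have h4 : 127733760 ≤ Nat.card θW.range := planeGroup_large.trans (Subgroup.card_le_of_le hrange)
    nlinarith
  let θ : ↥(SU 6 F 2) →* Equiv.Perm (Fin 891) :=
    θW.comp ((MonoidHom.id _).codRestrict W fun g => by rw [hWtop]; exact Subgroup.mem_top g)
  have hθeq : ∀ g p, (g, p) ∈ TG → θ g = p := fun g p h => hθ _ p h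
  have hθrange : θ.range = planeGroup := by
    have h1 : (Subgroup.center ↥(SU 6 F 2)).map θ = ⊥ := (Subgroup.eq_bot_iff_forall _).2 (by
      rintro _ ⟨z, hz, rfl⟩; exact hθeq z 1 (hcenter z hz))
    have h2 : ({MR, MH} : Set ↥(SU 6 F 2)).image θ = {gR, gH} := by
      rw [Set.image_pair, hθeq _ _ hTR, hθeq _ _ hTH]
    rw [MonoidHom.range_eq_map, ← hWtop, Subgroup.map_sup, h1, sup_bot_eq, MonoidHom.map_closure,
      h2]
    rfl
  have hθker : θ.ker = Subgroup.center ↥(SU 6 F 2) := by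
    refine le_antisymm ?_ fun z hz => hθeq z 1 (hcenter z hz)
    rcases le_center_or_eq_top hF' (by norm_num) (by norm_num) θ.ker with h | h
    · exact h
    · exfalso
      have h4 := planeGroup_large
      rw [← hθrange, ← Subgroup.index_ker, h, Subgroup.index_top] at h4
      omega
  have hcard : Nat.card planeGroup = 9196830720 := by
    rw [← hθrange, ← Subgroup.index_ker, hθker]
    have := Subgroup.card_mul_index (Subgroup.center ↥(SU 6 F 2))
    rw [hZ3, hcardSU] at this
    omega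
  refine ⟨hcard, ⟨((QuotientGroup.quotientMulEquivOfEq hθker.symm).trans
    (QuotientGroup.quotientKerEquivRange θ)).trans (MulEquiv.subgroupCongr hθrange)⟩⟩

end CfsgLib.Co2Unit
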