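import Mathlib
import Cfsg.Agent.Co2Unit.Standard
import Cfsg.Agent.Co2Unit.Unitary

/-! Transfer to any configuration. -/

set_option autoImplicit false

namespace CfsgLib.Co2Unit

open Cfsg CfsgLib.Leech

/-- The stabiliser of two minimal vectors with product `-16` is `PSU₆(2)`. -/
theorem pairStab_psu (v w : leechLattice) (hv : nrm v = 32) (hw : nrm w = 32)
    (hd : ip v w = -16) (F : Type) [Field F] [Fintype F] (hF : Fintype.card F = 4) :
    Nonempty (pairStab v w ≃* PSU 6 F 2) := by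
  obtain ⟨hΓ, ⟨eΓ⟩⟩ := psu_planes (F := F) hF
  obtain ⟨e0⟩ := pairStab_equiv hΓ
  obtain ⟨g, g1, g2⟩ := exists_pair_neg16 hv hw hd
  exact ⟨((pairStabEquiv g1 g2).trans e0).trans eΓ.symm⟩

end CfsgLib.Co2Unit
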