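import Mathlib.LinearAlgebra.Matrix.Determinant.Basic
import Mathlib.Tactic.FinCases
import Cfsg.Agent.Co2Unit.DataPlanes
import Cfsg.Agent.Co2Unit.Perm

/-! Checking matrix identities over four elements on packed entries. -/

set_option autoImplicit false
set_option maxRecDepth 10000

namespace CfsgLib.Co2Unit

/-- Product of two packed field elements. -/
def mulCode (a b : ℕ) : ℕ := 2625168384 / 4 ^ (4 * a + b) % 4

/-- An entry of a packed matrix. -/
def entCode (c t : ℕ) : ℕ := c / 4 ^ t % 4

theorem el_mul_fin : ∀ a b : Fin 4, el (mulCode a b) = el a * el b := by decide +kernel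

theorem el_add_fin : ∀ a b : Fin 4, el ((a : ℕ) ^^^ b) = el a + el b := by decide +kernel

theorem el_mul {a b : ℕ} (ha : a < 4) (hb : b < 4) : el (mulCode a b) = el a * el b :=
  el_mul_fin ⟨a, ha⟩ ⟨b, hb⟩

theorem el_add {a b : ℕ} (ha : a < 4) (hb : b < 4) : el (a ^^^ b) = el a + el b :=
  el_add_fin ⟨a, ha⟩ ⟨b, hb⟩

theorem xor_lt_four {a b : ℕ} (ha : a < 4) (hb : b < 4) : a ^^^ b < 4 :=
  Nat.xor_lt_two_pow (n := 2) ha hb

theorem mulCode_lt (a b : ℕ) : mulCode a b < 4 := Nat.mod_lt _ (by norm_num)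

theorem entCode_lt (c t : ℕ) : entCode c t < 4 := Nat.mod_lt _ (by norm_num)

theorem unpack_apply (m n c : ℕ) (i : Fin m) (k : Fin n) :
    unpack m n c i k = el (entCode c (n * i.1 + k.1)) := rfl

/-- An entry of a product with three summands. -/
def dot3 (A B i k : ℕ) : ℕ :=
  mulCode (entCode A (3 * i)) (entCode B k) ^^^ mulCode (entCode A (3 * i + 1)) (entCode B (3 + k))
    ^^^ mulCode (entCode A (3 * i + 2)) (entCode B (6 + k))

/-- An entry of a product with six summands. -/
def dot6 (A B i k : ℕ) : ℕ :=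
  mulCode (entCode A (6 * i)) (entCode B k) ^^^ mulCode (entCode A (6 * i + 1)) (entCode B (3 + k))
    ^^^ mulCode (entCode A (6 * i + 2)) (entCode B (6 + k))
    ^^^ mulCode (entCode A (6 * i + 3)) (entCode B (9 + k))
    ^^^ mulCode (entCode A (6 * i + 4)) (entCode B (12 + k))
    ^^^ mulCode (entCode A (6 * i + 5)) (entCode B (15 + k))

/-- The identities for one plane. -/
def certCheck (A B C : ℕ) (D : ℕ × ℕ) : Bool :=
  ((List.range 6).all fun i => (List.range 3).all fun k => dot6 A B i k == dot3 C D.1 i k) &&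
    ((List.range 3).all fun i => (List.range 3).all fun k =>
      dot3 D.1 D.2 i k == if i = k then 1 else 0)

theorem mul6_apply (A B : ℕ) (i : Fin 6) (k : Fin 3) :
    (unpack 6 6 A * unpack 6 3 B) i k = el (dot6 A B i k) := by
  rw [dot6, el_add, el_add, el_add, el_add, el_add, el_mul, el_mul, el_mul, el_mul, el_mul, el_mul]
  · simp [Matrix.mul_apply, Fin.sum_univ_six, unpack_apply]
  all_goals (repeat' apply xor_lt_four) <;> first | exact entCode_lt _ _ | exact mulCode_lt _ _

theorem mul3_apply (m : ℕ) (A B : ℕ) (i : Fin m) (k : Fin 3) :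
    (unpack m 3 A * unpack 3 3 B) i k = el (dot3 A B i k) := by
  rw [dot3, el_add, el_add, el_mul, el_mul, el_mul]
  · simp [Matrix.mul_apply, Fin.sum_univ_three, unpack_apply]
  all_goals (repeat' apply xor_lt_four) <;> first | exact entCode_lt _ _ | exact mulCode_lt _ _

theorem certCheck_sound {A B C : ℕ} {D : ℕ × ℕ} (h : certCheck A B C D = true) :
    unpack 6 6 A * unpack 6 3 B = unpack 6 3 C * unpack 3 3 D.1 ∧
      unpack 3 3 D.1 * unpack 3 3 D.2 = 1 := by
  simp only [certCheck, Bool.and_eq_true, List.all_eq_true, List.mem_range, beq_iff_eq] at h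
  refine ⟨Matrix.ext fun i k => ?_, Matrix.ext fun i k => ?_⟩
  · rw [mul6_apply, mul3_apply, h.1 i i.2 k k.2]
  · rw [mul3_apply, h.2 i i.2 k k.2, Matrix.one_apply]
    have h1 : el 1 = 1 ∧ el 0 = 0 := by decide +kernel
    by_cases hik : i = k
    · rw [if_pos (congrArg Fin.val hik), if_pos hik, h1.1]
    · rw [if_neg fun e => hik (Fin.ext e), if_neg hik, h1.2]

end CfsgLib.Co2Unit
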