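import Mathlib
import Cfsg.Agent.Co2Unit.Perm
import Cfsg.Agent.Co2Unit.DataLeech
import Cfsg.Agent.LeechTriples.Perm
import Cfsg.Agent.Leech.McLSimple

/-! The two elements of the standard pair and the coordinates of the 891 vectors. -/

set_option autoImplicit false
set_option linter.style.haveILetI false
set_option maxRecDepth 10000

namespace CfsgLib.Co2Unit

open Cfsg CfsgLib.Leech CfsgLib.LeechTriples
open scoped Pointwise

/-- The first vector. -/
abbrev v0 : leechLattice := Spor.leechU

/-- The second vector. -/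
abbrev w0 : leechLattice := -w16

/-- The coordinates of one of the 891 vectors. -/
def ptFun (i : Fin 891) : GolayPt → ℤ := fun p => ((ptCode i / 16 ^ ptIdx p % 16 : ℕ) : ℤ) - 4

theorem base_facts : nrm v0 = 32 ∧ nrm w0 = 32 ∧ ip v0 w0 = -16 := by
  simp only [nrm, ip]
  decide +kernel

/-- A permutation given by a table and its inverse table. -/
def tabPerm (t t' : List ℕ) (h1 : ∀ p : GolayPt, idxPt (t'.getD (ptIdx (idxPt (t.getD (ptIdx p) 0))) 0) = p)
    (h2 : ∀ p : GolayPt, idxPt (t.getD (ptIdx (idxPt (t'.getD (ptIdx p) 0))) 0) = p) :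
    Equiv.Perm GolayPt where
  toFun p := idxPt (t.getD (ptIdx p) 0)
  invFun p := idxPt (t'.getD (ptIdx p) 0)
  left_inv := h1
  right_inv := h2

theorem perm_mem_of_check (σ : Equiv.Perm GolayPt)
    (h : ∀ t s : ZMod 23, (∑ p, qrWord s p * qrWord t (σ.symm p)) = (0 : ZMod 2) ∧
      (∑ p, qrWord t (σ.symm p)) = (0 : ZMod 2)) : σ ∈ M24 := by
  refine perm_mem_M24 _ fun t => (mem_code_iff _).2 ⟨fun s => ?_, ?_⟩
  · rw [dot₂_apply]; exact (h t s).1
  · rw [dot₂_apply]; simp only [Pi.one_apply, one_mul]; exact (h t 0).2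

def pA : Equiv.Perm GolayPt := tabPerm tabA tabAInv (by decide +kernel) (by decide +kernel)
def pB : Equiv.Perm GolayPt := tabPerm tabB tabBInv (by decide +kernel) (by decide +kernel)
def pC : Equiv.Perm GolayPt := tabPerm tabC tabCInv (by decide +kernel) (by decide +kernel)
def pR : Equiv.Perm GolayPt := tabPerm tabR tabRInv (by decide +kernel) (by decide +kernel)

theorem pA_mem : pA ∈ M24 := perm_mem_of_check _ (by decide +kernel)
theorem pB_mem : pB ∈ M24 := perm_mem_of_check _ (by decide +kernel)
theorem pC_mem : pC ∈ M24 := perm_mem_of_check _ (by decide +kernel)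
theorem pR_mem : pR ∈ M24 := perm_mem_of_check _ (by decide +kernel)

/-- The permutation generator. -/
def eR : Co0 := permHom ⟨pR, pR_mem⟩

/-- The generator moving the frame. -/
def eH : Co0 := permHom ⟨pA, pA_mem⟩ * xi * permHom ⟨pB, pB_mem⟩ * xi * permHom ⟨pC, pC_mem⟩

/-- The permutation generator on coordinates. -/
def rawR (x : GolayPt → ℤ) : GolayPt → ℤ := fun p => x (pR.symm p)

/-- The frame generator on coordinates. -/
def rawH (x : GolayPt → ℤ) : GolayPt → ℤ :=
  fun p => xiFun (fun q => xiFun (fun r => x (pC.symm r)) (pB.symm q)) (pA.symm p)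

theorem eR_coe (v : leechLattice) : ((eR • v : leechLattice) : GolayPt → ℤ) = rawR v := rfl

theorem eH_coe (v : leechLattice) : ((eH • v : leechLattice) : GolayPt → ℤ) = rawH v := rfl

end CfsgLib.Co2Unit
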